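/-
Lyons project: the model facts feed the universal bound.
-/
import Cfsg.Agent.LY.M
import Cfsg.Agent.LY.U

set_option autoImplicit false

namespace CfsgLY

theorem uf : UF := ⟨memS4, ubM, decT1, decT2, decT3, decT4, lbA, lbS2, lbS3, lbS4⟩

end CfsgLY
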