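import Cfsg.Agent.LY.U
import Cfsg.Agent.LY.M

/-! Lyons project: the universal bound. -/

set_option autoImplicit false

universe u

namespace CfsgLY

theorem uf : UF := ⟨memS4, ubM, decT1, decT2, decT3, decT4, lbA, lbS2, lbS3, lbS4⟩

theorem thmU (Q : Type u) [Group Q] [Finite Q] (A : AmG mm 21 LA LS Q) (π : Q →* GL111)
    (h1 : ∀ m, π (A.φ m) = fstM m) (h2 : π A.σ = s6) : Nat.card A.cl ≤ 51765179004000000 :=
  thmU' uf Q A π h1 h2

end CfsgLY
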